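import Mathlib
import Cfsg.Prelude.Def_Spor_Fi24
import Cfsg.Agent.Lib.Helper56.TCEven
import Cfsg.Agent.Lib.Helper56.Fi24a.Cert
import Cfsg.Agent.Lib.Helper56.Fi24S.Orb
import Cfsg.Agent.Lib.Helper56.Fi24U0.Cert
import Cfsg.Agent.Lib.Helper56.Fi24U1.Cert
import Cfsg.Agent.Lib.Helper56.Fi24U2.Cert
import Cfsg.Agent.Lib.Helper56.Fi24U3.Cert
import Cfsg.Agent.Lib.Helper56.Fi24U4.Cert
import Cfsg.Agent.Lib.Helper56.Fi24U5.Cert
import Cfsg.Agent.Lib.Helper56.Fi24U6.Cert
import Cfsg.Agent.Lib.Helper56.Fi24U7.Cert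
import Cfsg.Agent.Lib.Helper56.Fi24U8.Cert
import Cfsg.Agent.Lib.Helper56.Fi24U9.Cert
import Cfsg.Agent.Lib.Helper56.Fi24V9.Cert
import Cfsg.Agent.Lib.Helper56.Fi24V10.Cert
import Cfsg.Agent.S1690
import Cfsg.Agent.S1691

set_option autoImplicit false
set_option maxRecDepth 1000000

/-!
The commutator subgroup of the presented group `Cfsg.Spor.Fi24` is simple of order
`1255205709190661721292800`.
-/

namespace Cfsg.Agent.Lib.Helper56.Fi24S

open Cfsg.Spor Cfsg.Agent.Lib.Helper56.TC Cfsg.Agent.Lib.Helper56.TC.Tabs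
open Cfsg.Agent.Lib.Helper19.Cox (L L_mono mem_L L_zero)

/-- part 1 of the certificate of the permutation representation -/
theorem hP : Fi24a.T.P1 := Fi24a.cert.p1

/-- the generators in the order of the letters of the table -/
def gens : List Fi24.Gen := [Fi24.Gen.l, Fi24.Gen.k, Fi24.Gen.a, Fi24.Gen.b, Fi24.Gen.c, Fi24.Gen.d, Fi24.Gen.e, Fi24.Gen.f, Fi24.Gen.g, Fi24.Gen.j, Fi24.Gen.h, Fi24.Gen.i]

/-- the generators in the order of the first chain of subgroups -/
def gens1 : List Fi24.Gen := [Fi24.Gen.a, Fi24.Gen.b, Fi24.Gen.c, Fi24.Gen.d, Fi24.Gen.e, Fi24.Gen.f, Fi24.Gen.h, Fi24.Gen.l, Fi24.Gen.k, Fi24.Gen.i, Fi24.Gen.g, Fi24.Gen.j]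

/-- the generators in the order of the second chain of subgroups -/
def gens2 : List Fi24.Gen := [Fi24.Gen.a, Fi24.Gen.b, Fi24.Gen.c, Fi24.Gen.d, Fi24.Gen.e, Fi24.Gen.f, Fi24.Gen.h, Fi24.Gen.l, Fi24.Gen.i, Fi24.Gen.g, Fi24.Gen.j, Fi24.Gen.k]

theorem hall : ∀ x : Fi24.Gen, x ∈ gens := by intro x; cases x <;> decide
theorem hall1 : ∀ x : Fi24.Gen, x ∈ gens1 := by intro x; cases x <;> decide
theorem hall2 : ∀ x : Fi24.Gen, x ∈ gens2 := by intro x; cases x <;> decide
theorem hnode : ∀ x ∈ gens, x ∈ coxNodes Fi24.edges := by decide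
theorem hnode1 : ∀ x ∈ gens1, x ∈ coxNodes Fi24.edges := by decide
theorem hnode2 : ∀ x ∈ gens2, x ∈ coxNodes Fi24.edges := by decide
theorem hrels : Fi24a.T.rels1 = coxW Fi24.edges gens ++ Fi24.extra.map (wordOf gens) := by
  decide +kernel

theorem hN : Fi24a.T.N = 306936 := rfl

/-! ### The lower bound -/

theorem lower : 2510411418381323442585600 ≤ Nat.card (L (sigma hP) Fi24a.T.K) := by
  have h0 := chain_step hP [] o0R 0 (by decide +kernel) o0_all o0_hg
  have e0 : o0R.m = 306936 := rfl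
  rw [e0] at h0
  have h1 := chain_step hP [0] oAR 6 (by decide +kernel) oA_all oA_hg
  have e1 : oAR.m = 31671 := rfl
  rw [e1] at h1
  have h2 := chain_step hP [6, 0] o2R 24 (by decide +kernel) o2_all o2_hg
  have e2 : o2R.m = 3510 := rfl
  rw [e2] at h2
  have h3 := chain_step hP [24, 6, 0] o3R 1 (by decide +kernel) o3_all o3_hg
  have e3 : o3R.m = 25344 := rfl
  rw [e3] at h3
  have h4 := chain_step hP [1, 24, 6, 0] o4R 113 (by decide +kernel) o4_all o4_hg
  have e4 : o4R.m = 63 := rfl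
  rw [e4] at h4
  have h5 := chain_step hP [113, 1, 24, 6, 0] o5R 21 (by decide +kernel) o5_all o5_hg
  have e5 : o5R.m = 96 := rfl
  rw [e5] at h5
  have h6 := chain_step hP [21, 113, 1, 24, 6, 0] o6R 360 (by decide +kernel) o6_all o6_hg
  have e6 : o6R.m = 2 := rfl
  rw [e6] at h6
  have h7 := chain_step hP [360, 21, 113, 1, 24, 6, 0] o7R 666 (by decide +kernel) o7_all o7_hg
  have e7 : o7R.m = 120 := rfl
  rw [e7] at h7
  have h8 := chain_step hP [666, 360, 21, 113, 1, 24, 6, 0] o8R 45 (by decide +kernel) o8_all o8_hg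
  have e8 : o8R.m = 2 := rfl
  rw [e8] at h8
  have hlast : 0 < Nat.card (stabs hP [45, 666, 360, 21, 113, 1, 24, 6, 0]) := Nat.card_pos
  have hfirst : Nat.card (stabs hP []) = Nat.card (L (sigma hP) Fi24a.T.K) := rfl
  rw [← hfirst]
  omega


/-! ### Primitivity and simplicity of the even subgroup -/

theorem prim : MulAction.IsPreprimitive (evenS hP) (Fin Fi24a.T.N) := by
  apply prim_rank3_sub hP (evenS hP) o0R oAR oBR 6 1 (by decide +kernel) (by decide +kernel)
    o0_all oA_all oB_all (evenS_words hP o0R o0_ev) (evenS_words_fix hP oAR oA_ev)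
    (evenS_words_fix hP oBR oB_ev)
  · intro y hy
    rw [hN] at hy
    exact full_all y hy
  · intro y hy
    rw [hN] at hy
    exact cover_all y hy
  · exact zeroA
  · exact zeroB
  · rw [cntA, hN]; norm_num
  · rw [cntB, hN]; norm_num

/-- the parents in the tree of the braid relations -/
def par (k : ℕ) : ℕ := ([0, 0, 1, 2, 3, 4, 5, 6, 7, 8, 5, 10] : List ℕ).getD k 0

theorem htree : ∀ k < Fi24a.T.K, 1 ≤ k → par k < k ∧ [par k, k, par k, k, par k, k] ∈ Fi24a.T.rels1 ∧
    (2 ≤ k → (par k = 0 → [1, k, 1, k] ∈ Fi24a.T.rels1) ∧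
      (par k ≠ 0 → [par (par k), k, par (par k), k] ∈ Fi24a.T.rels1)) := by
  intro k hk
  have hk' : k < 12 := hk
  interval_cases k <;> decide +kernel

theorem simple (hc : Nat.card (evenS hP) = 1255205709190661721292800) : IsSimpleGroup (evenS hP) := by
  have := prim
  apply simple_of_primitive_pow (evenS hP) 29 1 (by norm_num)
  · rw [Nat.card_eq_fintype_card, Fintype.card_fin, hN]
    norm_num
  · rw [hc]; norm_num
  · apply ncl_even hP (fun _ _ => rfl) 29 wy 14 (by decide +kernel) (by decide +kernel)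
      (by decide +kernel) _ _ par htree
    · intro v hv
      rw [hN] at hv
      exact py_all v hv
    · intro v hv
      rw [hN] at hv
      exact pz_all v hv
  · rw [← Finite.one_lt_card_iff_nontrivial, hc]
    norm_num

/-! ### The upper bound -/

/-- the generators of the presented group in the order of the first chain -/
noncomputable abbrev u1 : ℕ → Fi24 := pgen Fi24.edges Fi24.extra gens1

/-- the generators of the presented group in the order of the second chain -/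
noncomputable abbrev u2 : ℕ → Fi24 := pgen Fi24.edges Fi24.extra gens2

theorem hu1 : ∀ i, u1 i * u1 i = 1 := pgen_sq Fi24.edges Fi24.extra hall1 hnode1
theorem hu2 : ∀ i, u2 i * u2 i = 1 := pgen_sq Fi24.edges Fi24.extra hall2 hnode2

theorem relU1 : ∀ w ∈ coxW Fi24.edges gens1 ++ Fi24.extra.map (wordOf gens1), ew u1 w = 1 :=
  pgen_rel Fi24.edges Fi24.extra hall1 hnode1

theorem relU2 : ∀ w ∈ coxW Fi24.edges gens2 ++ Fi24.extra.map (wordOf gens2), ew u2 w = 1 :=
  pgen_rel Fi24.edges Fi24.extra hall2 hnode2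

theorem up0 : Finite (L u1 0) ∧ Nat.card (L u1 0) ≤ 1 := chain_zero u1

theorem sub0 : ∀ w ∈ Fi24U0.T.rels1, w ∈ coxW Fi24.edges gens1 ++ Fi24.extra.map (wordOf gens1) := by
  decide +kernel

theorem up1 : Finite (L u1 1) ∧ Nat.card (L u1 1) ≤ 2 := by
  have h := chain_upper u1 Fi24U0.T 0 1 Fi24U0.cert (by decide +kernel) (fun _ _ => rfl)
    (by decide +kernel) hu1 (fun w hw => relU1 w (sub0 w hw)) up0
  have e : Fi24U0.T.N = 2 := rfl
  rw [e] at h
  exact ⟨h.1, le_trans h.2 (by norm_num)⟩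

theorem sub1 : ∀ w ∈ Fi24U1.T.rels1, w ∈ coxW Fi24.edges gens1 ++ Fi24.extra.map (wordOf gens1) := by
  decide +kernel

theorem up2 : Finite (L u1 2) ∧ Nat.card (L u1 2) ≤ 6 := by
  have h := chain_upper u1 Fi24U1.T 1 2 Fi24U1.cert (by decide +kernel) (fun _ _ => rfl)
    (by decide +kernel) hu1 (fun w hw => relU1 w (sub1 w hw)) up1
  have e : Fi24U1.T.N = 3 := rfl
  rw [e] at h
  exact ⟨h.1, le_trans h.2 (by norm_num)⟩

theorem sub2 : ∀ w ∈ Fi24U2.T.rels1, w ∈ coxW Fi24.edges gens1 ++ Fi24.extra.map (wordOf gens1) := by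
  decide +kernel

theorem up3 : Finite (L u1 3) ∧ Nat.card (L u1 3) ≤ 24 := by
  have h := chain_upper u1 Fi24U2.T 2 6 Fi24U2.cert (by decide +kernel) (fun _ _ => rfl)
    (by decide +kernel) hu1 (fun w hw => relU1 w (sub2 w hw)) up2
  have e : Fi24U2.T.N = 4 := rfl
  rw [e] at h
  exact ⟨h.1, le_trans h.2 (by norm_num)⟩

theorem sub3 : ∀ w ∈ Fi24U3.T.rels1, w ∈ coxW Fi24.edges gens1 ++ Fi24.extra.map (wordOf gens1) := by
  decide +kernel

theorem up4 : Finite (L u1 4) ∧ Nat.card (L u1 4) ≤ 120 := by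
  have h := chain_upper u1 Fi24U3.T 3 24 Fi24U3.cert (by decide +kernel) (fun _ _ => rfl)
    (by decide +kernel) hu1 (fun w hw => relU1 w (sub3 w hw)) up3
  have e : Fi24U3.T.N = 5 := rfl
  rw [e] at h
  exact ⟨h.1, le_trans h.2 (by norm_num)⟩

theorem sub4 : ∀ w ∈ Fi24U4.T.rels1, w ∈ coxW Fi24.edges gens1 ++ Fi24.extra.map (wordOf gens1) := by
  decide +kernel

theorem up5 : Finite (L u1 5) ∧ Nat.card (L u1 5) ≤ 720 := by
  have h := chain_upper u1 Fi24U4.T 4 120 Fi24U4.cert (by decide +kernel) (fun _ _ => rfl)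
    (by decide +kernel) hu1 (fun w hw => relU1 w (sub4 w hw)) up4
  have e : Fi24U4.T.N = 6 := rfl
  rw [e] at h
  exact ⟨h.1, le_trans h.2 (by norm_num)⟩

theorem sub5 : ∀ w ∈ Fi24U5.T.rels1, w ∈ coxW Fi24.edges gens1 ++ Fi24.extra.map (wordOf gens1) := by
  decide +kernel

theorem up6 : Finite (L u1 6) ∧ Nat.card (L u1 6) ≤ 5040 := by
  have h := chain_upper u1 Fi24U5.T 5 720 Fi24U5.cert (by decide +kernel) (fun _ _ => rfl)
    (by decide +kernel) hu1 (fun w hw => relU1 w (sub5 w hw)) up5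
  have e : Fi24U5.T.N = 7 := rfl
  rw [e] at h
  exact ⟨h.1, le_trans h.2 (by norm_num)⟩

theorem sub6 : ∀ w ∈ Fi24U6.T.rels1, w ∈ coxW Fi24.edges gens1 ++ Fi24.extra.map (wordOf gens1) := by
  decide +kernel

theorem up7 : Finite (L u1 7) ∧ Nat.card (L u1 7) ≤ 2903040 := by
  have h := chain_upper u1 Fi24U6.T 6 5040 Fi24U6.cert (by decide +kernel) (fun _ _ => rfl)
    (by decide +kernel) hu1 (fun w hw => relU1 w (sub6 w hw)) up6
  have e : Fi24U6.T.N = 576 := rfl
  rw [e] at h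
  exact ⟨h.1, le_trans h.2 (by norm_num)⟩

theorem sub7 : ∀ w ∈ Fi24U7.T.rels1, w ∈ coxW Fi24.edges gens1 ++ Fi24.extra.map (wordOf gens1) := by
  decide +kernel

theorem up8 : Finite (L u1 8) ∧ Nat.card (L u1 8) ≤ 2903040 := by
  have h := chain_upper u1 Fi24U7.T 7 2903040 Fi24U7.cert (by decide +kernel) (fun _ _ => rfl)
    (by decide +kernel) hu1 (fun w hw => relU1 w (sub7 w hw)) up7
  have e : Fi24U7.T.N = 1 := rfl
  rw [e] at h
  exact ⟨h.1, le_trans h.2 (by norm_num)⟩

theorem sub8 : ∀ w ∈ Fi24U8.T.rels1, w ∈ coxW Fi24.edges gens1 ++ Fi24.extra.map (wordOf gens1) := by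
  decide +kernel

theorem up9 : Finite (L u1 9) ∧ Nat.card (L u1 9) ≤ 348364800 := by
  have h := chain_upper u1 Fi24U8.T 8 2903040 Fi24U8.cert (by decide +kernel) (fun _ _ => rfl)
    (by decide +kernel) hu1 (fun w hw => relU1 w (sub8 w hw)) up8
  have e : Fi24U8.T.N = 120 := rfl
  rw [e] at h
  exact ⟨h.1, le_trans h.2 (by norm_num)⟩

theorem sub9 : ∀ w ∈ Fi24U9.T.rels1, w ∈ coxW Fi24.edges gens1 ++ Fi24.extra.map (wordOf gens1) := by
  decide +kernel

theorem up10 : Finite (L u1 10) ∧ Nat.card (L u1 10) ≤ 9904359628800 := by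
  have h := chain_upper u1 Fi24U9.T 9 348364800 Fi24U9.cert (by decide +kernel) (fun _ _ => rfl)
    (by decide +kernel) hu1 (fun w hw => relU1 w (sub9 w hw)) up9
  have e : Fi24U9.T.N = 28431 := rfl
  rw [e] at h
  exact ⟨h.1, le_trans h.2 (by norm_num)⟩

/-- The subgroup generated by the first nine generators of the second chain lies in the subgroup
generated by the first ten generators of the first chain. -/
theorem hAR : L u2 9 ≤ L u1 10 := by
  rw [pgen_L Fi24.edges Fi24.extra 9 (by decide), pgen_L Fi24.edges Fi24.extra 10 (by decide)]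
  apply Subgroup.map_mono
  apply Subgroup.closure_mono
  rintro r ⟨x, hx, rfl⟩
  exact ⟨x, (by revert x; decide), rfl⟩

theorem fixA : ∀ x ∈ gens2.take 9, Fi24a.T.tb (gens.idxOf x) 0 = 0 := by decide +kernel

theorem lettersR : ∀ j < oRR.ng, ∃ x ∈ gens1.take 10, oRR.gw j = [gens.idxOf x] := by
  decide +kernel

theorem of_mem_L1 (x : Fi24.Gen) (hx : x ∈ gens1.take 10) :
    (PresentedGroup.of x : Fi24) ∈ L u1 10 := by
  rw [pgen_L Fi24.edges Fi24.extra 10 (by decide)]
  exact ⟨FreeGroup.of x, Subgroup.subset_closure ⟨x, hx, rfl⟩, rfl⟩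

/-- The order of the subgroup generated by the first nine generators of the second chain. -/
theorem upA : Finite (L u2 9) ∧ Nat.card (L u2 9) ≤ 9170703360 := by
  obtain ⟨φ, hφ⟩ := cox_hom Fi24.edges Fi24.extra Fi24a.T hP (by decide +kernel) (by decide) hall
    (fun _ _ => rfl) hrels
  have hφof : ∀ x : Fi24.Gen, φ (PresentedGroup.of x) = sigma hP (gens.idxOf x) := by
    intro x
    rw [← pgen_idx Fi24.edges Fi24.extra hall x, hφ]
  obtain ⟨f10, h10⟩ := up10
  have hfinA : Finite (L u2 9) := Finite.of_injective _ (Subgroup.inclusion_injective hAR)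
  refine ⟨hfinA, ?_⟩
  have hK0 : (0 : ℕ) < Fi24a.T.N := by rw [hN]; norm_num
  have hA : ∀ x ∈ L u2 9, φ x (ptOf hP 0) = ptOf hP 0 := by
    have hle : L u2 9 ≤ (MulAction.stabilizer (Equiv.Perm (Fin Fi24a.T.N)) (ptOf hP 0)).comap φ := by
      rw [pgen_L Fi24.edges Fi24.extra 9 (by decide), MonoidHom.map_closure, Subgroup.closure_le]
      rintro y ⟨r, ⟨x, hx, rfl⟩, rfl⟩
      show φ (PresentedGroup.of x) ∈ MulAction.stabilizer (Equiv.Perm (Fin Fi24a.T.N)) (ptOf hP 0)
      rw [hφof, MulAction.mem_stabilizer_iff, Equiv.Perm.smul_def]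
      apply Fin.ext
      have hl : gens.idxOf x < Fi24a.T.K := List.idxOf_lt_length_of_mem (hall x)
      rw [sigma_apply hP _ hl, ptOf_val hP 0 hK0]
      exact fixA x hx
    intro x hx
    have := hle hx
    rwa [Subgroup.mem_comap, MulAction.mem_stabilizer_iff, Equiv.Perm.smul_def] at this
  have hreach : ∀ c < 1080, ∃ g ∈ L u1 10, ((φ g (ptOf hP 0) : Fin Fi24a.T.N) : ℕ) = oRR.O c := by
    intro c hc
    obtain ⟨g, hg, hgv⟩ := orb_reach hP oR_all oR_hg ((L u1 10).map φ) (by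
      intro j hj
      obtain ⟨x, hx, hw⟩ := lettersR j hj
      rw [hw, ew_cons, ew_nil, mul_one, ← hφof]
      exact ⟨_, of_mem_L1 x hx, rfl⟩) (ptOf hP 0) (ptOf_val hP 0 hK0) c hc
    obtain ⟨r, hr, rfl⟩ := hg
    exact ⟨r, hr, hgv⟩
  have h := card_ge_of_orbit φ (L u1 10) (L u2 9) hAR (ptOf hP 0) hA 1080 oRR.O
    (orb_inj (R := oRR) oR_all) hreach f10
  have h' : 1080 * Nat.card (L u2 9) ≤ 1080 * 9170703360 :=
    le_trans h (le_trans h10 (by norm_num))
  exact Nat.le_of_mul_le_mul_left h' (by norm_num)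

theorem subV9 : ∀ w ∈ Fi24V9.T.rels1, w ∈ coxW Fi24.edges gens2 ++ Fi24.extra.map (wordOf gens2) := by
  decide +kernel

theorem subV10 : ∀ w ∈ Fi24V10.T.rels1, w ∈ coxW Fi24.edges gens2 ++ Fi24.extra.map (wordOf gens2) := by
  decide +kernel

theorem upB : Finite (L u2 10) ∧ Nat.card (L u2 10) ≤ 258247006617600 := by
  have h := chain_upper u2 Fi24V9.T 9 9170703360 Fi24V9.cert (by decide +kernel) (fun _ _ => rfl)
    (by decide +kernel) hu2 (fun w hw => relU2 w (subV9 w hw)) upA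
  have e : Fi24V9.T.N = 28160 := rfl
  rw [e] at h
  exact ⟨h.1, le_trans h.2 (by norm_num)⟩

theorem upC : Finite (L u2 11) ∧ Nat.card (L u2 11) ≤ 8178940946586009600 := by
  have h := chain_upper u2 Fi24V10.T 10 258247006617600 Fi24V10.cert (by decide +kernel) (fun _ _ => rfl)
    (by decide +kernel) hu2 (fun w hw => relU2 w (subV10 w hw)) upB
  have e : Fi24V10.T.N = 31671 := rfl
  rw [e] at h
  exact ⟨h.1, le_trans h.2 (by norm_num)⟩

theorem H_eq : (Subgroup.closure ({Fi24.a, Fi24.b, Fi24.c, Fi24.d, Fi24.e, Fi24.f, Fi24.g, Fi24.h, Fi24.i, Fi24.j, Fi24.l} : Set (FreeGroup Fi24.Gen))).map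
    (PresentedGroup.mk (coxRelators Fi24.edges ∪ {r | r ∈ Fi24.extra})) = L u2 11 := by
  rw [pgen_L Fi24.edges Fi24.extra 11 (by decide)]
  congr 2
  ext r
  simp [gens2]
  tauto

theorem card_le : Finite Fi24 ∧ Nat.card Fi24 ≤ 2 * 1255205709190661721292800 := by
  obtain ⟨f, h⟩ := upC
  have hidx : (L u2 11).index = 306936 := by
    rw [← H_eq]
    exact Cfsg.Agent.S1690.result
  have h2 := card_le_of_index (L u2 11) 306936 8178940946586009600 hidx (by norm_num) f h
  exact ⟨h2.1, le_trans h2.2 (by norm_num)⟩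

theorem lower' : 2 * 1255205709190661721292800 ≤ Nat.card (L (sigma hP) Fi24a.T.K) := by
  have := lower
  norm_num at this ⊢
  exact this

/-- The commutator subgroup of the presented group is simple of order `1255205709190661721292800`. -/
theorem main : IsSimpleGroup (commutator Fi24) ∧ Nat.card (commutator Fi24) = 1255205709190661721292800 :=
  pres_simple_even Fi24.edges Fi24.extra Fi24a.T hP (by decide +kernel) (by decide) hall hnode
    (fun _ _ => rfl) hrels 1255205709190661721292800 card_le lower' Cfsg.Agent.S1691.result par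
    (fun k hk hk1 => ⟨(htree k hk hk1).1, (htree k hk hk1).2.1⟩) simple

end Cfsg.Agent.Lib.Helper56.Fi24S
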