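import Mathlib
import Cfsg.Agent.Lib.Helper56.TCPerm
import Cfsg.Agent.Lib.Helper56.TCPow
import Cfsg.Agent.Lib.Helper56.Fi24a.D
import Cfsg.Agent.Lib.Helper56.Fi24S.OrbD
set_option autoImplicit false
set_option maxRecDepth 1000000

namespace Cfsg.Agent.Lib.Helper56.Fi24S

open Cfsg.Agent.Lib.Helper56.TC Cfsg.Agent.Lib.Helper56.TC.Tabs

theorem o0_c112500 : allRange (fun x => forceN (chkOrb Fi24a.T o0R 0) x) 112500 18750 = true := by decide +kernel
theorem o0_c131250 : allRange (fun x => forceN (chkOrb Fi24a.T o0R 0) x) 131250 18750 = true := by decide +kernel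
theorem o0_c150000 : allRange (fun x => forceN (chkOrb Fi24a.T o0R 0) x) 150000 18750 = true := by decide +kernel
theorem o0_c168750 : allRange (fun x => forceN (chkOrb Fi24a.T o0R 0) x) 168750 18750 = true := by decide +kernel
theorem o0_c187500 : allRange (fun x => forceN (chkOrb Fi24a.T o0R 0) x) 187500 18750 = true := by decide +kernel
theorem o0_c206250 : allRange (fun x => forceN (chkOrb Fi24a.T o0R 0) x) 206250 18750 = true := by decide +kernel

end Cfsg.Agent.Lib.Helper56.Fi24S
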