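import Mathlib
import Cfsg.Agent.Lib.Helper56.TCPerm
import Cfsg.Agent.Lib.Helper56.TCPow
import Cfsg.Agent.Lib.Helper56.Fi24a.D
import Cfsg.Agent.Lib.Helper56.Fi24S.OrbD
set_option autoImplicit false
set_option maxRecDepth 1000000

namespace Cfsg.Agent.Lib.Helper56.Fi24S

open Cfsg.Agent.Lib.Helper56.TC Cfsg.Agent.Lib.Helper56.TC.Tabs

theorem o8_c0 : allRange (fun x => forceN (chkOrb Fi24a.T o8R 45) x) 0 2 = true := by decide +kernel
theorem oR_c0 : allRange (fun x => forceN (chkOrb Fi24a.T oRR 0) x) 0 1080 = true := by decide +kernel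
theorem cover_c0 : allRange (fun x => forceN (fun y => Nat.beq y 0 || (inOrb oAR y || inOrb oBR y)) x) 0 40000 = true := by decide +kernel
theorem cover_c40000 : allRange (fun x => forceN (fun y => Nat.beq y 0 || (inOrb oAR y || inOrb oBR y)) x) 40000 40000 = true := by decide +kernel
theorem cover_c80000 : allRange (fun x => forceN (fun y => Nat.beq y 0 || (inOrb oAR y || inOrb oBR y)) x) 80000 40000 = true := by decide +kernel
theorem cover_c120000 : allRange (fun x => forceN (fun y => Nat.beq y 0 || (inOrb oAR y || inOrb oBR y)) x) 120000 40000 = true := by decide +kernel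

end Cfsg.Agent.Lib.Helper56.Fi24S
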