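import Mathlib
import Cfsg.Agent.Lib.Helper56.TCPerm
import Cfsg.Agent.Lib.Helper56.TCPow
import Cfsg.Agent.Lib.Helper56.Fi24a.D
import Cfsg.Agent.Lib.Helper56.Fi24S.OrbD
set_option autoImplicit false
set_option maxRecDepth 1000000

namespace Cfsg.Agent.Lib.Helper56.Fi24S

open Cfsg.Agent.Lib.Helper56.TC Cfsg.Agent.Lib.Helper56.TC.Tabs

theorem cover_c160000 : allRange (fun x => forceN (fun y => Nat.beq y 0 || (inOrb oAR y || inOrb oBR y)) x) 160000 40000 = true := by decide +kernel
theorem cover_c200000 : allRange (fun x => forceN (fun y => Nat.beq y 0 || (inOrb oAR y || inOrb oBR y)) x) 200000 40000 = true := by decide +kernel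
theorem cover_c240000 : allRange (fun x => forceN (fun y => Nat.beq y 0 || (inOrb oAR y || inOrb oBR y)) x) 240000 40000 = true := by decide +kernel
theorem cover_c280000 : allRange (fun x => forceN (fun y => Nat.beq y 0 || (inOrb oAR y || inOrb oBR y)) x) 280000 26936 = true := by decide +kernel
theorem pyT_c0 : allRange (fun x => forceN (chkPowT Fi24a.T tauy wy 29) x) 0 2459 = true := by decide +kernel
theorem pyT_c2459 : allRange (fun x => forceN (chkPowT Fi24a.T tauy wy 29) x) 2459 2459 = true := by decide +kernel

end Cfsg.Agent.Lib.Helper56.Fi24S
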