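import Mathlib
import Cfsg.Agent.Lib.Helper56.TCPerm
import Cfsg.Agent.Lib.Helper56.TCPow
import Cfsg.Agent.Lib.Helper56.Fi24a.D
import Cfsg.Agent.Lib.Helper56.Fi24S.OrbD
set_option autoImplicit false
set_option maxRecDepth 1000000

namespace Cfsg.Agent.Lib.Helper56.Fi24S

open Cfsg.Agent.Lib.Helper56.TC Cfsg.Agent.Lib.Helper56.TC.Tabs

theorem pyT_c19672 : allRange (fun x => forceN (chkPowT Fi24a.T tauy wy 29) x) 19672 2459 = true := by decide +kernel
theorem pyT_c22131 : allRange (fun x => forceN (chkPowT Fi24a.T tauy wy 29) x) 22131 2459 = true := by decide +kernel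
theorem pyT_c24590 : allRange (fun x => forceN (chkPowT Fi24a.T tauy wy 29) x) 24590 2459 = true := by decide +kernel
theorem pyT_c27049 : allRange (fun x => forceN (chkPowT Fi24a.T tauy wy 29) x) 27049 2459 = true := by decide +kernel
theorem pyT_c29508 : allRange (fun x => forceN (chkPowT Fi24a.T tauy wy 29) x) 29508 2459 = true := by decide +kernel
theorem pyT_c31967 : allRange (fun x => forceN (chkPowT Fi24a.T tauy wy 29) x) 31967 2459 = true := by decide +kernel

end Cfsg.Agent.Lib.Helper56.Fi24S
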