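import Mathlib
import Cfsg.Agent.Lib.Helper56.TCPerm
import Cfsg.Agent.Lib.Helper56.TCPow
import Cfsg.Agent.Lib.Helper56.Fi24a.D
import Cfsg.Agent.Lib.Helper56.Fi24S.OrbD
set_option autoImplicit false
set_option maxRecDepth 1000000

namespace Cfsg.Agent.Lib.Helper56.Fi24S

open Cfsg.Agent.Lib.Helper56.TC Cfsg.Agent.Lib.Helper56.TC.Tabs

theorem pyT_c93442 : allRange (fun x => forceN (chkPowT Fi24a.T tauy wy 29) x) 93442 2459 = true := by decide +kernel
theorem pyT_c95901 : allRange (fun x => forceN (chkPowT Fi24a.T tauy wy 29) x) 95901 2459 = true := by decide +kernel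
theorem pyT_c98360 : allRange (fun x => forceN (chkPowT Fi24a.T tauy wy 29) x) 98360 2459 = true := by decide +kernel
theorem pyT_c100819 : allRange (fun x => forceN (chkPowT Fi24a.T tauy wy 29) x) 100819 2459 = true := by decide +kernel
theorem pyT_c103278 : allRange (fun x => forceN (chkPowT Fi24a.T tauy wy 29) x) 103278 2459 = true := by decide +kernel
theorem pyT_c105737 : allRange (fun x => forceN (chkPowT Fi24a.T tauy wy 29) x) 105737 2459 = true := by decide +kernel

end Cfsg.Agent.Lib.Helper56.Fi24S
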