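import Mathlib
import Cfsg.Agent.Lib.Helper56.TCPerm
import Cfsg.Agent.Lib.Helper56.TCPow
import Cfsg.Agent.Lib.Helper56.Fi24a.D
import Cfsg.Agent.Lib.Helper56.Fi24S.OrbD
set_option autoImplicit false
set_option maxRecDepth 1000000

namespace Cfsg.Agent.Lib.Helper56.Fi24S

open Cfsg.Agent.Lib.Helper56.TC Cfsg.Agent.Lib.Helper56.TC.Tabs

theorem pyT_c122950 : allRange (fun x => forceN (chkPowT Fi24a.T tauy wy 29) x) 122950 2459 = true := by decide +kernel
theorem pyT_c125409 : allRange (fun x => forceN (chkPowT Fi24a.T tauy wy 29) x) 125409 2459 = true := by decide +kernel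
theorem pyT_c127868 : allRange (fun x => forceN (chkPowT Fi24a.T tauy wy 29) x) 127868 2459 = true := by decide +kernel
theorem pyT_c130327 : allRange (fun x => forceN (chkPowT Fi24a.T tauy wy 29) x) 130327 2459 = true := by decide +kernel
theorem pyT_c132786 : allRange (fun x => forceN (chkPowT Fi24a.T tauy wy 29) x) 132786 2459 = true := by decide +kernel
theorem pyT_c135245 : allRange (fun x => forceN (chkPowT Fi24a.T tauy wy 29) x) 135245 2459 = true := by decide +kernel

end Cfsg.Agent.Lib.Helper56.Fi24S
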