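import Mathlib
import Cfsg.Agent.Lib.Helper56.TCPerm
import Cfsg.Agent.Lib.Helper56.TCPow
import Cfsg.Agent.Lib.Helper56.Fi24a.D
import Cfsg.Agent.Lib.Helper56.Fi24S.OrbD
set_option autoImplicit false
set_option maxRecDepth 1000000

namespace Cfsg.Agent.Lib.Helper56.Fi24S

open Cfsg.Agent.Lib.Helper56.TC Cfsg.Agent.Lib.Helper56.TC.Tabs

theorem pyT_c152458 : allRange (fun x => forceN (chkPowT Fi24a.T tauy wy 29) x) 152458 2459 = true := by decide +kernel
theorem pyT_c154917 : allRange (fun x => forceN (chkPowT Fi24a.T tauy wy 29) x) 154917 2459 = true := by decide +kernel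
theorem pyT_c157376 : allRange (fun x => forceN (chkPowT Fi24a.T tauy wy 29) x) 157376 2459 = true := by decide +kernel
theorem pyT_c159835 : allRange (fun x => forceN (chkPowT Fi24a.T tauy wy 29) x) 159835 2459 = true := by decide +kernel
theorem pyT_c162294 : allRange (fun x => forceN (chkPowT Fi24a.T tauy wy 29) x) 162294 2459 = true := by decide +kernel
theorem pyT_c164753 : allRange (fun x => forceN (chkPowT Fi24a.T tauy wy 29) x) 164753 2459 = true := by decide +kernel

end Cfsg.Agent.Lib.Helper56.Fi24S
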