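import Mathlib
import Cfsg.Agent.Lib.Helper56.TCPerm
import Cfsg.Agent.Lib.Helper56.TCPow
import Cfsg.Agent.Lib.Helper56.Fi24a.D
import Cfsg.Agent.Lib.Helper56.Fi24S.OrbD
set_option autoImplicit false
set_option maxRecDepth 1000000

namespace Cfsg.Agent.Lib.Helper56.Fi24S

open Cfsg.Agent.Lib.Helper56.TC Cfsg.Agent.Lib.Helper56.TC.Tabs

theorem pyT_c299998 : allRange (fun x => forceN (chkPowT Fi24a.T tauy wy 29) x) 299998 2459 = true := by decide +kernel
theorem pyT_c302457 : allRange (fun x => forceN (chkPowT Fi24a.T tauy wy 29) x) 302457 2459 = true := by decide +kernel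
theorem pyT_c304916 : allRange (fun x => forceN (chkPowT Fi24a.T tauy wy 29) x) 304916 2020 = true := by decide +kernel
theorem pzT_c0 : allRange (fun x => forceN (chkPowT Fi24a.T tauz (wy.reverse ++ [0, 1]) 29) x) 0 2380 = true := by decide +kernel
theorem pzT_c2380 : allRange (fun x => forceN (chkPowT Fi24a.T tauz (wy.reverse ++ [0, 1]) 29) x) 2380 2380 = true := by decide +kernel
theorem pzT_c4760 : allRange (fun x => forceN (chkPowT Fi24a.T tauz (wy.reverse ++ [0, 1]) 29) x) 4760 2380 = true := by decide +kernel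

end Cfsg.Agent.Lib.Helper56.Fi24S
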