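import Mathlib
import Cfsg.Agent.Lib.Helper56.TCPerm
import Cfsg.Agent.Lib.Helper56.TCPow
import Cfsg.Agent.Lib.Helper56.Fi24a.D
import Cfsg.Agent.Lib.Helper56.Fi24S.OrbD
set_option autoImplicit false
set_option maxRecDepth 1000000

namespace Cfsg.Agent.Lib.Helper56.Fi24S

open Cfsg.Agent.Lib.Helper56.TC Cfsg.Agent.Lib.Helper56.TC.Tabs

theorem pzT_c35700 : allRange (fun x => forceN (chkPowT Fi24a.T tauz (wy.reverse ++ [0, 1]) 29) x) 35700 2380 = true := by decide +kernel
theorem pzT_c38080 : allRange (fun x => forceN (chkPowT Fi24a.T tauz (wy.reverse ++ [0, 1]) 29) x) 38080 2380 = true := by decide +kernel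
theorem pzT_c40460 : allRange (fun x => forceN (chkPowT Fi24a.T tauz (wy.reverse ++ [0, 1]) 29) x) 40460 2380 = true := by decide +kernel
theorem pzT_c42840 : allRange (fun x => forceN (chkPowT Fi24a.T tauz (wy.reverse ++ [0, 1]) 29) x) 42840 2380 = true := by decide +kernel
theorem pzT_c45220 : allRange (fun x => forceN (chkPowT Fi24a.T tauz (wy.reverse ++ [0, 1]) 29) x) 45220 2380 = true := by decide +kernel
theorem pzT_c47600 : allRange (fun x => forceN (chkPowT Fi24a.T tauz (wy.reverse ++ [0, 1]) 29) x) 47600 2380 = true := by decide +kernel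

end Cfsg.Agent.Lib.Helper56.Fi24S
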