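import Mathlib
import Cfsg.Agent.Lib.Helper56.TCPerm
import Cfsg.Agent.Lib.Helper56.TCPow
import Cfsg.Agent.Lib.Helper56.Fi24a.D
import Cfsg.Agent.Lib.Helper56.Fi24S.OrbD
set_option autoImplicit false
set_option maxRecDepth 1000000

namespace Cfsg.Agent.Lib.Helper56.Fi24S

open Cfsg.Agent.Lib.Helper56.TC Cfsg.Agent.Lib.Helper56.TC.Tabs

theorem full_c280000 : allRange (fun x => forceN (inOrb o0R) x) 280000 26936 = true := by decide +kernel
theorem oA_c0 : allRange (fun x => forceN (chkOrb Fi24a.T oAR 6) x) 0 18750 = true := by decide +kernel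
theorem oA_c18750 : allRange (fun x => forceN (chkOrb Fi24a.T oAR 6) x) 18750 12921 = true := by decide +kernel
theorem oB_c0 : allRange (fun x => forceN (chkOrb Fi24a.T oBR 1) x) 0 18750 = true := by decide +kernel
theorem oB_c18750 : allRange (fun x => forceN (chkOrb Fi24a.T oBR 1) x) 18750 18750 = true := by decide +kernel
theorem oB_c37500 : allRange (fun x => forceN (chkOrb Fi24a.T oBR 1) x) 37500 18750 = true := by decide +kernel

end Cfsg.Agent.Lib.Helper56.Fi24S
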