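import Mathlib
import Cfsg.Agent.Lib.Helper56.TCPerm
import Cfsg.Agent.Lib.Helper56.TCPow
import Cfsg.Agent.Lib.Helper56.Fi24a.D
import Cfsg.Agent.Lib.Helper56.Fi24S.OrbD
set_option autoImplicit false
set_option maxRecDepth 1000000

namespace Cfsg.Agent.Lib.Helper56.Fi24S

open Cfsg.Agent.Lib.Helper56.TC Cfsg.Agent.Lib.Helper56.TC.Tabs

theorem o2_c0 : allRange (fun x => forceN (chkOrb Fi24a.T o2R 24) x) 0 2173 = true := by decide +kernel
theorem o2_c2173 : allRange (fun x => forceN (chkOrb Fi24a.T o2R 24) x) 2173 1337 = true := by decide +kernel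
theorem o3_c0 : allRange (fun x => forceN (chkOrb Fi24a.T o3R 1) x) 0 2173 = true := by decide +kernel
theorem o3_c2173 : allRange (fun x => forceN (chkOrb Fi24a.T o3R 1) x) 2173 2173 = true := by decide +kernel
theorem o3_c4346 : allRange (fun x => forceN (chkOrb Fi24a.T o3R 1) x) 4346 2173 = true := by decide +kernel
theorem o3_c6519 : allRange (fun x => forceN (chkOrb Fi24a.T o3R 1) x) 6519 2173 = true := by decide +kernel

end Cfsg.Agent.Lib.Helper56.Fi24S
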