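import Mathlib
import Cfsg.Agent.Lib.Helper56.TCPerm
import Cfsg.Agent.Lib.Helper56.TCPow
import Cfsg.Agent.Lib.Helper56.Fi24a.D
import Cfsg.Agent.Lib.Helper56.Fi24S.OrbD
set_option autoImplicit false
set_option maxRecDepth 1000000

namespace Cfsg.Agent.Lib.Helper56.Fi24S

open Cfsg.Agent.Lib.Helper56.TC Cfsg.Agent.Lib.Helper56.TC.Tabs

theorem o3_c21730 : allRange (fun x => forceN (chkOrb Fi24a.T o3R 1) x) 21730 2173 = true := by decide +kernel
theorem o3_c23903 : allRange (fun x => forceN (chkOrb Fi24a.T o3R 1) x) 23903 1441 = true := by decide +kernel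
theorem o4_c0 : allRange (fun x => forceN (chkOrb Fi24a.T o4R 113) x) 0 63 = true := by decide +kernel
theorem o5_c0 : allRange (fun x => forceN (chkOrb Fi24a.T o5R 21) x) 0 96 = true := by decide +kernel
theorem o6_c0 : allRange (fun x => forceN (chkOrb Fi24a.T o6R 360) x) 0 2 = true := by decide +kernel
theorem o7_c0 : allRange (fun x => forceN (chkOrb Fi24a.T o7R 666) x) 0 120 = true := by decide +kernel

end Cfsg.Agent.Lib.Helper56.Fi24S
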